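import Mathlib

namespace Cfsg.Agent.Lib.Helper17.PIT

open scoped BigOperators
open scoped commutatorElement

/-- Cramer-type lemma: a square system `∑ y, A x y • m y = 0` forces `det A • m z = 0`. -/
theorem det_smul_eq_zero {X : Type*} [Fintype X] [DecidableEq X] {R : Type*} [CommRing R]
    {M : Type*} [AddCommGroup M] [Module R M] (A : Matrix X X R) (m : X → M)
    (h : ∀ x, ∑ y, A x y • m y = 0) (z : X) : A.det • m z = 0 := by
  have h1 : ∑ y, (A.adjugate * A) z y • m y = 0 := by
    have : ∀ y, (A.adjugate * A) z y • m y = ∑ x, A.adjugate z x • (A x y • m y) := by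
      intro y
      rw [Matrix.mul_apply, Finset.sum_smul]
      refine Finset.sum_congr rfl fun x _ => ?_
      rw [mul_smul]
    simp only [this]
    rw [Finset.sum_comm]
    refine Finset.sum_eq_zero fun x _ => ?_
    rw [← Finset.smul_sum, h x, smul_zero]
  rw [Matrix.adjugate_mul] at h1
  have h2 : ∀ y, (A.det • (1 : Matrix X X R)) z y • m y = if z = y then A.det • m y else 0 := by
    intro y
    rw [Matrix.smul_apply, Matrix.one_apply]
    by_cases hzy : z = y
    · simp [hzy]
    · simp [hzy]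
  simp only [h2] at h1
  rw [Finset.sum_ite_eq] at h1
  simpa using h1

section Der

variable {G : Type*} [Group G] {Q : Type*} [CommGroup Q]
  {M : Type*} [AddCommGroup M] [Module (MonoidAlgebra ℤ Q) M]

/-- `D` is a derivation (crossed homomorphism) with respect to `π`. -/
def IsDer (π : G →* Q) (D : G → M) : Prop :=
  ∀ g h, D (g * h) = D g + MonoidAlgebra.of ℤ Q (π g) • D h

variable {π : G →* Q} {D : G → M}

theorem IsDer.one (hD : IsDer π D) : D 1 = 0 := by
  have h := hD 1 1
  rw [mul_one, map_one, map_one, one_smul] at h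
  have : D 1 + D 1 = D 1 + 0 := by rw [add_zero]; exact h.symm
  exact add_left_cancel this

theorem IsDer.inv (hD : IsDer π D) (g : G) :
    D g⁻¹ = -(MonoidAlgebra.of ℤ Q (π g)⁻¹ • D g) := by
  have h := hD g⁻¹ g
  rw [inv_mul_cancel, hD.one, map_inv] at h
  exact eq_neg_of_add_eq_zero_left h.symm

theorem IsDer.pow (hD : IsDer π D) (g : G) (n : ℕ) :
    D (g ^ n) = (∑ k ∈ Finset.range n, MonoidAlgebra.of ℤ Q (π g) ^ k) • D g := by
  induction n with
  | zero => simp [hD.one]
  | succ n ih =>
    rw [pow_succ, hD, ih, Finset.sum_range_succ, add_smul, map_pow, map_pow]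

theorem IsDer.mul_inv (hD : IsDer π D) {a b : G} (h : π a = π b) :
    D (a * b⁻¹) = D a - D b := by
  rw [hD, hD.inv, smul_neg, smul_smul, ← map_mul, h, mul_inv_cancel, map_one, one_smul,
    sub_eq_add_neg]

theorem IsDer.comm (hD : IsDer π D) (u v : G) :
    D ⁅u, v⁆ = (1 - MonoidAlgebra.of ℤ Q (π v)) • D u + (MonoidAlgebra.of ℤ Q (π u) - 1) • D v := by
  have h1 : ⁅u, v⁆ = (u * v) * (v * u)⁻¹ := by
    rw [commutatorElement_def]; group
  have h2 : π (u * v) = π (v * u) := by rw [map_mul, map_mul, mul_comm]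
  rw [h1, hD.mul_inv h2, hD u v, hD v u, sub_smul, sub_smul, one_smul, one_smul]
  abel

theorem IsDer.ker_mul (hD : IsDer π D) {a : G} (ha : π a = 1) (h : G) :
    D (a * h) = D a + D h := by
  rw [hD, ha, map_one, one_smul]

end Der

/-- Generators of a finite abelian group adapted to a decomposition into cyclic groups. -/
theorem exists_gens (Q : Type*) [CommGroup Q] [Finite Q] :
    ∃ (ι : Type) (_ : Fintype ι) (n : ι → ℕ) (q : ι → Q),
      (∀ i, q i ^ n i = 1) ∧ Subgroup.closure (Set.range q) = ⊤ ∧ ∏ i, n i = Nat.card Q := by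
  classical
  obtain ⟨ι, hι, n, hn, ⟨e⟩⟩ := CommGroup.equiv_prod_multiplicative_zmod_of_finite Q
  have : ∀ i, NeZero (n i) := fun i => ⟨by have := hn i; omega⟩
  let ms : ∀ i, Multiplicative (ZMod (n i)) →* ((j : ι) → Multiplicative (ZMod (n j))) :=
    fun i => MonoidHom.mulSingle (fun j => Multiplicative (ZMod (n j))) i
  have hms : ∀ i a, ms i a = Pi.mulSingle i a := fun i a => rfl
  refine ⟨ι, hι, n, fun i => e.symm (ms i (Multiplicative.ofAdd (1 : ZMod (n i)))), ?_, ?_, ?_⟩
  · intro i
    rw [← map_pow, ← map_pow]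
    have : (Multiplicative.ofAdd (1 : ZMod (n i))) ^ n i = 1 := by
      rw [← ofAdd_nsmul, nsmul_one, ZMod.natCast_self]; rfl
    rw [this, map_one, map_one]
  · rw [eq_top_iff]
    intro x _
    have hx : x = e.symm (e x) := (e.symm_apply_apply x).symm
    rw [hx, ← Finset.univ_prod_mulSingle (e x), map_prod]
    refine Subgroup.prod_mem _ fun i _ => ?_
    have h1 : Pi.mulSingle i (e x i) =
        (ms i (Multiplicative.ofAdd (1 : ZMod (n i)))) ^ (Multiplicative.toAdd (e x i)).val := by
      rw [← map_pow, hms]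
      congr 1
      rw [← ofAdd_nsmul, nsmul_one, ZMod.natCast_zmod_val]; rfl
    rw [h1, map_pow]
    exact Subgroup.pow_mem _ (Subgroup.subset_closure (Set.mem_range_self i)) _
  · rw [Nat.card_congr e.toEquiv, Nat.card_pi]
    refine Finset.prod_congr rfl fun i _ => ?_
    rw [Nat.card_congr Multiplicative.toAdd, Nat.card_zmod]

section Span

variable {G : Type*} [Group G] {Q : Type*} [CommGroup Q]
  {M : Type*} [AddCommGroup M] [Module (MonoidAlgebra ℤ Q) M]
  {π : G →* Q} {D : G → M} {X : Type*} [Fintype X] (gX : X → G)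

theorem IsDer.span (hD : IsDer π D) (hgen : Subgroup.closure (Set.range gX) = ⊤) (g : G) :
    ∃ c : X → MonoidAlgebra ℤ Q, D g = ∑ y, c y • D (gX y) := by
  classical
  have hg : g ∈ Subgroup.closure (Set.range gX) := by rw [hgen]; trivial
  induction hg using Subgroup.closure_induction with
  | mem x hx =>
    obtain ⟨y, rfl⟩ := hx
    refine ⟨Pi.single y 1, ?_⟩
    rw [Finset.sum_eq_single y]
    · simp
    · intro b _ hb; simp [hb]
    · intro h; exact absurd (Finset.mem_univ y) h
  | one => exact ⟨0, by simp [hD.one]⟩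
  | mul a b _ _ iha ihb =>
    obtain ⟨ca, hca⟩ := iha
    obtain ⟨cb, hcb⟩ := ihb
    refine ⟨fun y => ca y + MonoidAlgebra.of ℤ Q (π a) * cb y, ?_⟩
    rw [hD, hca, hcb, Finset.smul_sum, ← Finset.sum_add_distrib]
    refine Finset.sum_congr rfl fun y _ => ?_
    rw [add_smul, mul_smul]
  | inv a _ iha =>
    obtain ⟨ca, hca⟩ := iha
    refine ⟨fun y => -(MonoidAlgebra.of ℤ Q (π a)⁻¹ * ca y), ?_⟩
    rw [hD.inv, hca, Finset.smul_sum, ← Finset.sum_neg_distrib]
    refine Finset.sum_congr rfl fun y _ => ?_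
    rw [neg_smul, mul_smul]

theorem IsDer.span_comm (hD : IsDer π D) (hgen : Subgroup.closure (Set.range gX) = ⊤)
    (ε : MonoidAlgebra ℤ Q →+* ℤ) (hε : ∀ q, ε (MonoidAlgebra.of ℤ Q q) = 1)
    {a : G} (ha : a ∈ commutator G) :
    ∃ l : X → MonoidAlgebra ℤ Q, (∀ y, ε (l y) = 0) ∧ D a = ∑ y, l y • D (gX y) := by
  classical
  have hker : ∀ x ∈ commutator G, π x = 1 := fun x hx =>
    MonoidHom.mem_ker.mp (Abelianization.commutator_subset_ker π hx)
  have hcl : ∀ x, x ∈ Subgroup.closure (commutatorSet G) → x ∈ commutator G := by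
    intro x hx; rw [commutator_eq_closure]; exact hx
  rw [commutator_eq_closure] at ha
  induction ha using Subgroup.closure_induction with
  | mem x hx =>
    obtain ⟨u, v, rfl⟩ := mem_commutatorSet_iff.mp hx
    obtain ⟨cu, hcu⟩ := hD.span gX hgen u
    obtain ⟨cv, hcv⟩ := hD.span gX hgen v
    refine ⟨fun y => (1 - MonoidAlgebra.of ℤ Q (π v)) * cu y +
      (MonoidAlgebra.of ℤ Q (π u) - 1) * cv y, ?_, ?_⟩
    · intro y
      simp only [map_add, map_mul, map_sub, map_one, hε, sub_self, zero_mul, add_zero]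
    · rw [hD.comm, hcu, hcv, Finset.smul_sum, Finset.smul_sum, ← Finset.sum_add_distrib]
      refine Finset.sum_congr rfl fun y _ => ?_
      rw [add_smul, mul_smul, mul_smul]
  | one => exact ⟨0, by simp, by simp [hD.one]⟩
  | mul x y hx hy ihx ihy =>
    obtain ⟨lx, hlx0, hlx⟩ := ihx
    obtain ⟨ly, hly0, hly⟩ := ihy
    refine ⟨fun z => lx z + ly z, fun z => by simp [hlx0, hly0], ?_⟩
    rw [hD.ker_mul (hker x (hcl x hx)), hlx, hly, ← Finset.sum_add_distrib]
    exact Finset.sum_congr rfl fun z _ => (add_smul _ _ _).symm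
  | inv x hx ihx =>
    obtain ⟨lx, hlx0, hlx⟩ := ihx
    refine ⟨fun z => -lx z, fun z => by simp [hlx0], ?_⟩
    rw [hD.inv, hker x (hcl x hx), inv_one, map_one, one_smul, hlx, ← Finset.sum_neg_distrib]
    exact Finset.sum_congr rfl fun z _ => (neg_smul _ _).symm

end Span

/-- The algebraic core of the Principal Ideal Theorem: if `π : G → Q` is the abelianization map of a
finite group, every derivation `F` of `G` into a `ℤ[Q]`-module is killed by the norm element. -/
theorem core {G : Type*} [Group G] [Finite G] {Q : Type*} [CommGroup Q] [Fintype Q]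
    (π : G →* Q) (hπ : Function.Surjective π) (hker : π.ker = commutator G)
    {C : Type*} [AddCommGroup C] [Module (MonoidAlgebra ℤ Q) C]
    (F : G → C) (hF : IsDer π F) (g : G) :
    (∑ q : Q, MonoidAlgebra.of ℤ Q q) • F g = 0 := by
  classical
  let ε : MonoidAlgebra ℤ Q →+* ℤ :=
    ((MonoidAlgebra.lift ℤ ℤ Q (1 : Q →* ℤ) : MonoidAlgebra ℤ Q →ₐ[ℤ] ℤ) : MonoidAlgebra ℤ Q →+* ℤ)
  have hε : ∀ q, ε (MonoidAlgebra.of ℤ Q q) = 1 := fun q => by
    show (MonoidAlgebra.lift ℤ ℤ Q (1 : Q →* ℤ)) (MonoidAlgebra.of ℤ Q q) = 1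
    rw [MonoidAlgebra.lift_of]; rfl
  obtain ⟨ι, hι, n, q, hqn, hqgen, hcard⟩ := exists_gens Q
  choose gι hgι using fun i => hπ (q i)
  letI : Fintype ↥(commutator G) := Fintype.ofFinite _
  let gX : ι ⊕ ↥(commutator G) → G := Sum.elim gι (fun a => (a : G))
  have hgen : Subgroup.closure (Set.range gX) = ⊤ := by
    rw [eq_top_iff]
    intro x _
    have h1 : π x ∈ (Subgroup.closure (Set.range gι)).map π := by
      rw [MonoidHom.map_closure, ← Set.range_comp]
      have : (π ∘ gι) = q := funext hgι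
      rw [this, hqgen]; trivial
    obtain ⟨h, hh, hhx⟩ := h1
    have h2 : h⁻¹ * x ∈ commutator G := by
      rw [← hker, MonoidHom.mem_ker, map_mul, map_inv, hhx, inv_mul_cancel]
    have h3 : h ∈ Subgroup.closure (Set.range gX) := by
      refine Subgroup.closure_mono ?_ hh
      rintro _ ⟨i, rfl⟩; exact ⟨Sum.inl i, rfl⟩
    have h4 : h⁻¹ * x ∈ Subgroup.closure (Set.range gX) :=
      Subgroup.subset_closure ⟨Sum.inr ⟨_, h2⟩, rfl⟩
    have : x = h * (h⁻¹ * x) := by group
    rw [this]; exact mul_mem h3 h4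
  let F' : G → C × MonoidAlgebra ℤ Q := fun g => (F g, MonoidAlgebra.of ℤ Q (π g) - 1)
  have hF' : IsDer π F' := by
    intro a b
    refine Prod.ext ?_ ?_
    · exact hF a b
    · show MonoidAlgebra.of ℤ Q (π (a * b)) - 1 = (MonoidAlgebra.of ℤ Q (π a) - 1) +
        MonoidAlgebra.of ℤ Q (π a) • (MonoidAlgebra.of ℤ Q (π b) - 1)
      rw [map_mul, map_mul, smul_eq_mul]; ring
  have hrel : ∀ x : ι ⊕ ↥(commutator G), ∃ (dd : MonoidAlgebra ℤ Q)
      (l : ι ⊕ ↥(commutator G) → MonoidAlgebra ℤ Q),
      (∀ y, ε (l y) = 0) ∧ dd • F' (gX x) = ∑ y, l y • F' (gX y) ∧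
      ε dd = (Sum.elim (fun i => (n i : ℤ)) (fun _ => 1) x) := by
    rintro (i | a)
    · have hmem : gι i ^ n i ∈ commutator G := by
        rw [← hker, MonoidHom.mem_ker, map_pow, hgι, hqn]
      obtain ⟨l, hl0, hl⟩ := hF'.span_comm gX hgen ε hε hmem
      refine ⟨∑ k ∈ Finset.range (n i), MonoidAlgebra.of ℤ Q (π (gι i)) ^ k, l, hl0, ?_, ?_⟩
      · rw [← hl]; exact (hF'.pow (gι i) (n i)).symm
      · simp only [map_sum, map_pow, hε, one_pow, Finset.sum_const, Finset.card_range,
          Sum.elim_inl, nsmul_eq_mul, mul_one]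
    · obtain ⟨l, hl0, hl⟩ := hF'.span_comm gX hgen ε hε a.2
      exact ⟨1, l, hl0, by rw [one_smul]; exact hl, by simp⟩
  choose dd L hL0 hLrel hdd using hrel
  let A : Matrix (ι ⊕ ↥(commutator G)) (ι ⊕ ↥(commutator G)) (MonoidAlgebra ℤ Q) :=
    Matrix.diagonal dd - Matrix.of L
  have hA : ∀ x, ∑ y, A x y • F' (gX y) = 0 := by
    intro x
    have : ∀ y, A x y • F' (gX y) =
        (if x = y then dd x • F' (gX y) else 0) - L x y • F' (gX y) := by
      intro y
      show (Matrix.diagonal dd x y - L x y) • F' (gX y) = _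
      rw [sub_smul, Matrix.diagonal_apply]
      by_cases hxy : x = y <;> simp [hxy]
    simp only [this]
    rw [Finset.sum_sub_distrib, Finset.sum_ite_eq, if_pos (Finset.mem_univ x), hLrel x, sub_self]
  have hdet := fun z => det_smul_eq_zero A (fun y => F' (gX y)) hA z
  obtain ⟨δ, hδ⟩ : ∃ δ, δ = A.det := ⟨_, rfl⟩
  rw [← hδ] at hdet
  have hεδ : ε δ = (Nat.card Q : ℤ) := by
    rw [hδ, RingHom.map_det]
    have : ε.mapMatrix A = Matrix.diagonal (fun x => ε (dd x)) := by
      ext x y
      simp only [RingHom.mapMatrix_apply, Matrix.map_apply, A, Matrix.sub_apply, Matrix.of_apply,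
        map_sub, hL0, sub_zero, Matrix.diagonal_apply]
      by_cases hxy : x = y <;> simp [hxy]
    rw [this, Matrix.det_diagonal]
    simp only [hdd]
    rw [Fintype.prod_sum_type]
    simp only [Sum.elim_inl, Sum.elim_inr, Finset.prod_const_one, mul_one]
    rw [← hcard]; push_cast; rfl
  have hinv : ∀ q : Q, δ * MonoidAlgebra.of ℤ Q q = δ := by
    let S : Subgroup Q :=
      { carrier := {q | δ * MonoidAlgebra.of ℤ Q q = δ}
        mul_mem' := by
          intro a b ha hb
          show δ * MonoidAlgebra.of ℤ Q (a * b) = δ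
          have ha' : δ * MonoidAlgebra.of ℤ Q a = δ := ha
          have hb' : δ * MonoidAlgebra.of ℤ Q b = δ := hb
          rw [map_mul, ← mul_assoc, ha', hb']
        one_mem' := by
          show δ * MonoidAlgebra.of ℤ Q 1 = δ
          rw [map_one, mul_one]
        inv_mem' := by
          intro a ha
          show δ * MonoidAlgebra.of ℤ Q a⁻¹ = δ
          have ha' : δ * MonoidAlgebra.of ℤ Q a = δ := ha
          calc δ * MonoidAlgebra.of ℤ Q a⁻¹
              = (δ * MonoidAlgebra.of ℤ Q a) * MonoidAlgebra.of ℤ Q a⁻¹ := by rw [ha']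
            _ = δ := by rw [mul_assoc, ← map_mul, mul_inv_cancel, map_one, mul_one] }
    have hS : S = ⊤ := by
      rw [eq_top_iff]
      have h1 : (⊤ : Subgroup Q) = (Subgroup.closure (Set.range gX)).map π := by
        rw [hgen, ← MonoidHom.range_eq_map, MonoidHom.range_eq_top.mpr hπ]
      rw [h1, MonoidHom.map_closure, Subgroup.closure_le]
      rintro _ ⟨_, ⟨z, rfl⟩, rfl⟩
      show δ * MonoidAlgebra.of ℤ Q (π (gX z)) = δ
      have h2 := congrArg Prod.snd (hdet z)
      have h3 : δ * (MonoidAlgebra.of ℤ Q (π (gX z)) - 1) = 0 := h2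
      rw [mul_sub, mul_one, sub_eq_zero] at h3
      exact h3
    intro q
    have : q ∈ S := by rw [hS]; trivial
    exact this
  have hcoef : ∀ h : Q, δ.coeff h = δ.coeff 1 := by
    intro h
    have h1 : (δ * MonoidAlgebra.of ℤ Q h).coeff h = δ.coeff h := by rw [hinv h]
    rw [MonoidAlgebra.of_apply, MonoidAlgebra.coeff_mul_single_apply, mul_inv_cancel, mul_one] at h1
    exact h1.symm
  have hδN : δ = δ.coeff 1 • ∑ q : Q, MonoidAlgebra.of ℤ Q q := by
    apply MonoidAlgebra.coeff_injective
    ext h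
    rw [MonoidAlgebra.coeff_smul, Finsupp.smul_apply, MonoidAlgebra.coeff_sum,
      Finsupp.finsetSum_apply]
    simp only [MonoidAlgebra.of_apply, MonoidAlgebra.coeff_single, Finsupp.single_apply]
    rw [Finset.sum_ite_eq' Finset.univ h, if_pos (Finset.mem_univ h), smul_eq_mul, mul_one, hcoef h]
  have hc1 : δ.coeff 1 = 1 := by
    have h1 : ε δ = δ.coeff 1 * (Nat.card Q : ℤ) := by
      conv_lhs => rw [hδN]
      rw [map_zsmul, map_sum]
      simp only [hε, Finset.sum_const, Finset.card_univ, smul_eq_mul, nsmul_eq_mul, mul_one,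
        Nat.card_eq_fintype_card]
    rw [hεδ] at h1
    have hpos : (Nat.card Q : ℤ) ≠ 0 := by
      have := Nat.card_pos (α := Q)
      exact_mod_cast this.ne'
    have h2 : (1 : ℤ) * (Nat.card Q : ℤ) = δ.coeff 1 * (Nat.card Q : ℤ) := by rw [one_mul]; exact h1
    exact (mul_right_cancel₀ hpos h2).symm
  have hz : ∀ z, (∑ q : Q, MonoidAlgebra.of ℤ Q q) • F (gX z) = 0 := by
    intro z
    have h2 := congrArg Prod.fst (hdet z)
    have h3 : δ • F (gX z) = 0 := h2
    rw [hδN, hc1, one_smul] at h3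
    exact h3
  obtain ⟨c, hc⟩ := hF.span gX hgen g
  rw [hc, Finset.smul_sum]
  refine Finset.sum_eq_zero fun y _ => ?_
  rw [smul_comm, hz, smul_zero]

section Transfer

/-- The translation representation of a group `Q` on functions `Q → B`. -/
noncomputable def trRep (Q B : Type*) [Group Q] [AddCommGroup B] : Q →* Module.End ℤ (Q → B) where
  toFun q :=
    { toFun := fun f x => f (q⁻¹ * x)
      map_add' := fun _ _ => rfl
      map_smul' := fun _ _ => rfl }
  map_one' := by
    ext f x
    simp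
  map_mul' a b := by
    ext f x
    simp [mul_inv_rev, mul_assoc]

/-- Functions `Q → B` as a `ℤ[Q]`-module through translation. -/
@[reducible] noncomputable def trModule (Q B : Type*) [Group Q] [AddCommGroup B] :
    Module (MonoidAlgebra ℤ Q) (Q → B) :=
  Module.compHom (Q → B)
    ((MonoidAlgebra.lift ℤ (Module.End ℤ (Q → B)) Q (trRep Q B) :
      MonoidAlgebra ℤ Q →ₐ[ℤ] Module.End ℤ (Q → B)) : MonoidAlgebra ℤ Q →+* Module.End ℤ (Q → B))

theorem tr_smul (Q B : Type*) [Group Q] [AddCommGroup B] (q : Q) (f : Q → B) (x : Q) :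
    letI := trModule Q B
    (MonoidAlgebra.of ℤ Q q • f) x = f (q⁻¹ * x) := by
  show ((MonoidAlgebra.lift ℤ (Module.End ℤ (Q → B)) Q (trRep Q B))
    (MonoidAlgebra.of ℤ Q q)) f x = _
  rw [MonoidAlgebra.lift_of]; rfl

end Transfer

/-- The Principal Ideal Theorem: the transfer of a finite group into the abelianization of its
commutator subgroup is trivial. -/
theorem pit {G : Type*} [Group G] [Finite G] :
    MonoidHom.transfer (Abelianization.of : ↥(commutator G) →* Abelianization ↥(commutator G)) =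
      (1 : G →* Abelianization ↥(commutator G)) := by
  classical
  have hπs : Function.Surjective (Abelianization.of : G →* Abelianization G) :=
    fun q => Quotient.inductionOn' q (fun x => ⟨x, rfl⟩)
  have hker : (Abelianization.of : G →* Abelianization G).ker = commutator G :=
    Abelianization.ker_of G
  obtain ⟨T, hT⟩ : ∃ T : (commutator G).LeftTransversal, T = default := ⟨_, rfl⟩
  obtain ⟨j, hj⟩ : ∃ j : Abelianization G ≃ G ⧸ commutator G,
      ∀ x : G, j (Abelianization.of x) = (x : G ⧸ commutator G) := ⟨Equiv.refl _, fun _ => rfl⟩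
  obtain ⟨t, ht0⟩ : ∃ t : Abelianization G → G,
      ∀ q, t q = ((T.2.leftQuotientEquiv (j q) : T.1) : G) := ⟨_, fun _ => rfl⟩
  have ht : ∀ q, (Abelianization.of : G →* Abelianization G) (t q) = q := fun q => by
    apply j.injective
    rw [hj, ht0]; exact T.2.quotientGroupMk_leftQuotientEquiv (j q)
  have hsm : ∀ (g : G) (i : G ⧸ commutator G),
      g⁻¹ • i = j ((Abelianization.of g)⁻¹ * j.symm i) := by
    intro g i
    refine Quotient.inductionOn' i (fun x => ?_)
    have h1 : j.symm (Quotient.mk'' x) = Abelianization.of x := by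
      rw [Equiv.symm_apply_eq, hj]
    rw [h1, ← map_inv, ← map_mul, hj]; rfl
  obtain ⟨φ', hφ0⟩ : ∃ φ' : G → Additive (Abelianization ↥(commutator G)),
      ∀ x (hx : x ∈ commutator G), φ' x = Additive.ofMul (Abelianization.of ⟨x, hx⟩) :=
    ⟨fun x => if hx : x ∈ commutator G then Additive.ofMul (Abelianization.of ⟨x, hx⟩) else 0,
      fun x hx => dif_pos hx⟩
  have hφ' : ∀ x y, x ∈ commutator G → y ∈ commutator G → φ' (x * y) = φ' x + φ' y := by
    intro x y hx hy
    rw [hφ0 x hx, hφ0 y hy, hφ0 _ (mul_mem hx hy), ← ofMul_mul, ← map_mul]; rfl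
  have hmem : ∀ (g : G) (q : Abelianization G),
      (t q)⁻¹ * g * t ((Abelianization.of g)⁻¹ * q) ∈ commutator G := by
    intro g q
    rw [← hker, MonoidHom.mem_ker, map_mul, map_mul, map_inv, ht, ht, mul_assoc,
      mul_inv_cancel_left, inv_mul_cancel]
  letI : Fintype (Abelianization G) := Fintype.ofFinite _
  letI := trModule (Abelianization G) (Additive (Abelianization ↥(commutator G)))
  obtain ⟨F, hF0⟩ : ∃ F : G → Abelianization G → Additive (Abelianization ↥(commutator G)),
      ∀ g q, F g q = φ' ((t q)⁻¹ * g * t ((Abelianization.of g)⁻¹ * q)) := ⟨_, fun _ _ => rfl⟩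
  have hF : IsDer (Abelianization.of : G →* Abelianization G) F := by
    intro g h
    funext q
    rw [Pi.add_apply, tr_smul, hF0, hF0, hF0, ← hφ' _ _ (hmem g q) (hmem h _)]
    congr 1
    have : (Abelianization.of (g * h))⁻¹ * q
        = (Abelianization.of h)⁻¹ * ((Abelianization.of g)⁻¹ * q) := by
      rw [map_mul, mul_inv_rev, mul_assoc]
    rw [this]; group
  have hcore := core (Abelianization.of : G →* Abelianization G) hπs hker F hF
  ext g
  rw [MonoidHom.one_apply]
  have h2 : ∑ q : Abelianization G, F g q = 0 := by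
    have h3 := congrFun (hcore g) 1
    rw [Finset.sum_smul, Finset.sum_apply] at h3
    simp only [tr_smul, mul_one] at h3
    rw [Pi.zero_apply] at h3
    rw [← Equiv.sum_comp (Equiv.inv (Abelianization G)) (fun q => F g q)]
    exact h3
  have h1 : Additive.ofMul (MonoidHom.transfer
      (Abelianization.of : ↥(commutator G) →* Abelianization ↥(commutator G)) g)
      = ∑ q : Abelianization G, F g q := by
    rw [MonoidHom.transfer_def _ T g]
    unfold Subgroup.leftTransversals.diff
    simp only []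
    rw [ofMul_prod]
    letI inst1 : Fintype (G ⧸ commutator G) := (commutator G).fintypeQuotientOfFiniteIndex
    refine Finset.sum_equiv j.symm
      (fun i => ⟨fun _ => Finset.mem_univ _, fun _ => Finset.mem_univ _⟩) (fun i _ => ?_)
    have hab : ((T.2.leftQuotientEquiv i : T.1) : G)⁻¹ * (((g • T).2.leftQuotientEquiv i : _) : G)
        = (t (j.symm i))⁻¹ * g * t ((Abelianization.of g)⁻¹ * j.symm i) := by
      rw [Subgroup.smul_apply_eq_smul_apply_inv_smul, hsm g i, ht0, ht0, Equiv.apply_symm_apply,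
        smul_eq_mul, mul_assoc]
    rw [hF0, hφ0 _ (hmem g _)]
    congr 2
    exact Subtype.ext hab
  rw [h2] at h1
  exact h1

end Cfsg.Agent.Lib.Helper17.PIT
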